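import Cfsg.Agent.H704.DS.Rel

/-!
# S4906: kernel checks, M23T (helper704, generated)
-/

set_option autoImplicit false
set_option linter.unusedSectionVars false
set_option maxRecDepth 100000

universe u

namespace Cfsg.Agent.H704.DS.K.M23T

open Cfsg Cfsg.Agent.H704 Cfsg.Agent.H704.DS

variable {K : Type u} [Group K] [Finite K] {n : ℕ}

theorem seg0 : ([.lev 25 31 4, .two 31 32 29 31, .lev 32 36 4, .lev 36 43 3, .two 43 44 41 43, .lev 44 61 3, .two 61 62 59 61, .fast 62 115] : List Seg).all (fun s => segChk true 10200960 [2, 3, 5, 7, 11, 23] [(23, 11)] 6388 s) = true := by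
  decide +kernel

theorem bad23 : LE 4 23 (leaf true fun e => base 10200960 [(23, 11)] e || ([11, 22, 115, 230, 231, 759, 770, 1518, 1540] : List ℕ).contains e) = true := by
  decide +kernel

theorem rel23 : relChk (23, 11) [11, 22, 115, 230, 231, 759, 770, 1518, 1540] = true := by decide +kernel

theorem bad24 : LE 4 24 (leaf true fun e => base 10200960 [(23, 11)] e || ([23, 126, 252, 253, 1760, 1771] : List ℕ).contains e) = true := by
  decide +kernel

theorem rel24 : relChk (23, 11) [23, 126, 252, 253, 1760, 1771] = true := by decide +kernel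

/-- **no `n`** for a group with the facts of M23T -/
theorem kill (F : Facts K 10200960 [2, 3, 5, 7, 11, 23] [(23, 11)]) (hd : DegM true n K) : False := by
  have h1 : 23 ≤ n := F.le_n hd (p := 23) (by decide)
  have h2 : n < 115 := F.lt_of_bound hd (by omega) (by decide) (by norm_num)
  by_cases g23 : n = 23
  · subst g23
    exact F.kill_rel_L hd 4 6388 (by decide +kernel) bad23 (q := (23, 11)) (by decide) rel23
  by_cases g24 : n = 24
  · subst g24
    exact F.kill_rel_L hd 4 6388 (by decide +kernel) bad24 (q := (23, 11)) (by decide) rel24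
  by_cases k0 : 25 ≤ n ∧ n < 115
  · exact F.of_segs hd (by decide) 6388 _ (lo := 25) (hi := 115) (by decide) seg0 k0.1 k0.2
  omega

end Cfsg.Agent.H704.DS.K.M23T
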