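import Cfsg.Agent.H704.DS.Rel

/-!
# S4906: kernel checks, M24T (helper704, generated)
-/

set_option autoImplicit false
set_option linter.unusedSectionVars false
set_option maxRecDepth 100000

universe u

namespace Cfsg.Agent.H704.DS.K.M24T

open Cfsg Cfsg.Agent.H704 Cfsg.Agent.H704.DS

variable {K : Type u} [Group K] [Finite K] {n : ℕ}

theorem seg0 : ([.lev 25 31 5, .two 31 33 29 31, .lev 33 43 4, .two 43 44 41 43, .lev 44 46 4] : List Seg).all (fun s => segChk true 244823040 [2, 3, 5, 7, 11, 23] [(23, 11)] 31294 s) = true := by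
  decide +kernel

theorem seg1 : ([.lev 47 60 4, .lev 60 61 3, .two 61 62 59 61, .fast 62 252] : List Seg).all (fun s => segChk true 244823040 [2, 3, 5, 7, 11, 23] [(23, 11)] 31294 s) = true := by
  decide +kernel

theorem bad23 : LE 6 23 (leaf true fun e => base 244823040 [(23, 11)] e || ([11, 22, 115, 230, 231, 759, 770, 1518, 1540, 3542, 7084] : List ℕ).contains e) = true := by
  decide +kernel

theorem rel23 : relChk (23, 11) [11, 22, 115, 230, 231, 759, 770, 1518, 1540, 3542, 7084] = true := by decide +kernel

theorem bad24 : LE 5 24 (leaf true fun e => base 244823040 [(23, 11)] e || ([23, 126, 252, 253, 1760, 1771, 3520, 8855] : List ℕ).contains e) = true := by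
  decide +kernel

theorem rel24 : relChk (23, 11) [23, 126, 252, 253, 1760, 1771, 3520, 8855] = true := by decide +kernel

theorem bad46 : LE 4 46 (leaf true fun e => base 244823040 [(23, 11)] e || ([45, 495, 990, 14168] : List ℕ).contains e) = true := by
  decide +kernel

theorem rel46 : relChk (23, 11) [45, 495, 990, 14168] = true := by decide +kernel

/-- **no `n`** for a group with the facts of M24T -/
theorem kill (F : Facts K 244823040 [2, 3, 5, 7, 11, 23] [(23, 11)]) (hd : DegM true n K) : False := by
  have h1 : 23 ≤ n := F.le_n hd (p := 23) (by decide)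
  have h2 : n < 252 := F.lt_of_bound hd (by omega) (by decide) (by norm_num)
  by_cases g23 : n = 23
  · subst g23
    exact F.kill_rel_L hd 6 31294 (by decide +kernel) bad23 (q := (23, 11)) (by decide) rel23
  by_cases g24 : n = 24
  · subst g24
    exact F.kill_rel_L hd 5 31294 (by decide +kernel) bad24 (q := (23, 11)) (by decide) rel24
  by_cases g46 : n = 46
  · subst g46
    exact F.kill_rel_L hd 4 31294 (by decide +kernel) bad46 (q := (23, 11)) (by decide) rel46
  by_cases k0 : 25 ≤ n ∧ n < 46
  · exact F.of_segs hd (by decide) 31294 _ (lo := 25) (hi := 46) (by decide) seg0 k0.1 k0.2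
  by_cases k1 : 47 ≤ n ∧ n < 252
  · exact F.of_segs hd (by decide) 31294 _ (lo := 47) (hi := 252) (by decide) seg1 k1.1 k1.2
  omega

end Cfsg.Agent.H704.DS.K.M24T
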